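/-
Helper library (helper20): the seven generators of order 3 of the Tits group (permutation model on 1755 points)
used for S2115, and the verification of all relators on the base `0, 230, 17`.
-/
import Cfsg.Agent.Lib.Helper20.Tits2T.DataChk
import Cfsg.Agent.Lib.Helper20.TitsM.Rels

set_option autoImplicit false
set_option maxRecDepth 100000

namespace Cfsg.Agent.Lib.Helper20.TitsM

open Cfsg.Agent.Lib.Helper28 Cfsg.Agent.Lib.Helper27.PC Cfsg.Agent.Lib.Helper27.TiP
open Cfsg.Agent.Lib.Helper27 Cfsg.Agent.Lib.Helper20.Tits2T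

/-- the words of the letters: `0 .. 13` the generators and their inverses, `14, 15` two involutions -/
def tw : ℕ → List ℕ
  | 0 => [20, 17, 19, 12, 17, 8, 8, 20, 10, 14]
  | 1 => [19, 20, 12, 18, 13, 13, 9, 11, 16, 10, 13]
  | 2 => [19, 20, 12, 12, 20, 14, 8, 10, 9, 13, 14]
  | 3 => [19, 12, 16, 12, 18, 10, 9, 11, 14, 16]
  | 4 => [20, 16, 15, 19, 17, 8, 10, 18, 11, 9]
  | 5 => [18, 18, 14, 19, 17, 8, 11, 9, 19, 17, 8]
  | 6 => [18, 20, 16, 12, 15, 8, 8, 8, 20]
  | 7 => [19, 19, 13, 14, 19, 15, 8, 8, 11, 20]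
  | 8 => [13, 16, 16, 19, 10, 9, 9, 20]
  | 9 => [20, 16, 14, 12, 9, 11, 9, 17]
  | 10 => [20, 15, 13, 18, 9, 16, 10, 9, 11]
  | 11 => [19, 20, 14, 17, 17, 17, 8, 8, 8, 10, 13, 19]
  | 12 => [18, 18, 16, 18, 13, 8, 10, 16, 9]
  | 13 => [18, 18, 12, 17, 12, 15, 8, 8, 12, 17, 11]
  | 14 => [19, 12, 12, 19, 14, 8, 15, 11]
  | 15 => [13, 13, 8, 8, 15, 10, 10]
  | _ => []

theorem tw_ok (x : ℕ) : Ok (tw x) := by
  by_cases h : x < 16
  · interval_cases x <;> decide
  · have e : tw x = [] := by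
      unfold tw
      split <;> first | omega | rfl
    rw [e]
    decide

/-- the value of a letter -/
noncomputable def τ (x : ℕ) : Γ := el (tw x)

/-- the word of a word -/
def flat : List ℕ → List ℕ
  | [] => []
  | x :: r => flat r ++ tw x

theorem flat_ok (r : List ℕ) : Ok (flat r) := by
  induction r with
  | nil => decide
  | cons x r ih => exact ih.append (tw_ok x)

theorem evalW_τ (r : List ℕ) : evalW τ r = el (flat r) := by
  induction r with
  | nil => rw [evalW_nil]; exact el_nil.symm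
  | cons x r ih =>
    rw [evalW_cons, ih]
    exact el_mul (tw_ok x) (flat_ok r)

theorem evalW_eq {r s : List ℕ} (h : code (flat r) = code (flat s)) : evalW τ r = evalW τ s := by
  rw [evalW_τ, evalW_τ]
  exact el_eq_of_code (flat_ok r) (flat_ok s) h

theorem rels_chk : ∀ r ∈ relsT, code (flat r) = code (flat []) := by decide +kernel

theorem relsT_τ (r : List ℕ) (hr : r ∈ relsT) : evalW τ r = 1 := by
  rw [evalW_eq (rels_chk r hr), evalW_nil]

theorem inv_chk : ∀ x < 14, code (flat [x, oinv x]) = code (flat []) := by decide +kernel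

theorem τ_oinv (x : ℕ) (hx : x < 14) : τ (oinv x) = (τ x)⁻¹ := by
  have h := evalW_eq (inv_chk x hx)
  rw [evalW_cons, evalW_cons, evalW_nil, mul_one] at h
  exact (inv_eq_of_mul_eq_one_right h).symm

theorem τ_cube (x : ℕ) (hx : x < 14) : (τ x) ^ 3 = 1 := by
  have h : ∀ x < 14, code (flat [x, x, x]) = code (flat []) := by decide +kernel
  have h2 := evalW_eq (h x hx)
  rw [evalW_cons, evalW_cons, evalW_cons, evalW_nil, mul_one] at h2
  rw [← h2, pow_succ, pow_two, mul_assoc]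

theorem comm_chk : ∀ d ∈ dataLB, code (flat [d.1, d.2.2]) = code (flat [d.2.2, d.1]) := by decide +kernel

theorem τ_comm (d : ℕ × ℕ × ℕ) (hd : d ∈ dataLB) : Commute (τ d.1) (τ d.2.2) := by
  have h := evalW_eq (comm_chk d hd)
  show τ d.1 * τ d.2.2 = τ d.2.2 * τ d.1
  simpa [evalW_cons] using h

/-- the generators of the permutation model as words in the seven generators -/
def gw : ℕ → List ℕ
  | 8 => [4, 8, 11, 8, 13, 10, 3, 12, 11]
  | 9 => [10, 1, 4, 8, 12, 0, 7, 4, 12, 4]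
  | 10 => [5, 11, 12, 4, 12, 4, 12, 11]
  | 11 => [2, 5, 6, 3, 0, 12, 4, 7, 9, 13]
  | 12 => [4, 6, 8, 10, 2, 13, 5, 12, 6]
  | 13 => [11, 0, 9, 11, 3, 13, 1, 11, 13, 5]
  | 14 => [2, 4, 7, 12, 0, 5, 12, 3]
  | 15 => [0, 8, 4, 11, 1, 3, 12, 10, 12, 6, 12]
  | 16 => [5, 8, 10, 0, 8, 13, 0, 6, 13, 4]
  | 17 => [0, 2, 10, 0, 5, 8, 12, 11, 0, 13, 6]
  | 18 => [3, 6, 2, 4, 9, 13, 6, 3, 11]
  | 19 => [0, 2, 10, 0, 5, 9, 13, 5, 0, 6]
  | 20 => [9, 4, 10, 12, 10, 12, 6, 5, 13]
  | _ => []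

theorem gw_chk : ∀ y ∈ TiP.LT, (∀ l ∈ gw y, l < 14) ∧ code (flat (gw y)) = code [y] := by decide +kernel

theorem evalW_mem_closure {G : Type*} [Group G] (v : ℕ → G) (n : ℕ) (r : List ℕ) (hr : ∀ l ∈ r, l < n) :
    evalW v r ∈ Subgroup.closure (v '' {x | x < n}) := by
  induction r with
  | nil => rw [evalW_nil]; exact Subgroup.one_mem _
  | cons x r ih =>
    rw [evalW_cons]
    exact Subgroup.mul_mem _ (Subgroup.subset_closure ⟨x, hr x List.mem_cons_self, rfl⟩)
      (ih (fun l hl => hr l (List.mem_cons_of_mem _ hl)))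

theorem τ_top : Subgroup.closure (τ '' {x | x < 14}) = ⊤ := by
  rw [eq_top_iff]
  rintro ⟨g, hg⟩ -
  have key : ∀ (g : Equiv.Perm ℕ) (hg : g ∈ Γ), (⟨g, hg⟩ : Γ) ∈ Subgroup.closure (τ '' {x | x < 14}) := by
    intro g hg
    induction hg using Subgroup.closure_induction with
    | mem g hg' =>
      obtain ⟨y, hy, rfl⟩ := hg'
      have hy' : y ∈ TiP.LT := hy
      obtain ⟨h1, h2⟩ := gw_chk y hy'
      have hok : Ok [y] := by
        intro z hz
        rw [List.mem_singleton] at hz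
        rw [hz]; exact hy'
      have h3 : evalW τ (gw y) = el [y] := by
        rw [evalW_τ]
        exact el_eq_of_code (flat_ok _) hok h2
      have h4 : (el [y])⁻¹ ∈ Subgroup.closure (τ '' {x | x < 14}) := by
        rw [← h3]
        exact Subgroup.inv_mem _ (evalW_mem_closure τ 14 _ h1)
      convert h4 using 1
      apply Subtype.ext
      rw [Subgroup.coe_inv, el_val hok]
      unfold LB.elt
      simp [evalW_cons]
      rfl
    | one => exact Subgroup.one_mem _
    | mul a b ha hb iha ihb => exact Subgroup.mul_mem _ iha ihb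
    | inv a ha iha => exact Subgroup.inv_mem _ iha
  exact key g hg

end Cfsg.Agent.Lib.Helper20.TitsM
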