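import Cfsg.Agent.Lib.Helper20.TitsM.LkLC0

set_option autoImplicit false
set_option maxRecDepth 100000

namespace Cfsg.Agent.Lib.Helper20.TitsM.LkL

open Cfsg.Agent.Lib.Helper28

theorem check_all : ∀ c < D.m, D.checkLabel c = true := by
  intro c hc
  have hc' : c < 5658 := hc
  by_cases h0 : c < 1500
  · exact allRange_iff.mp chk_0 c (by omega) (by omega)
  by_cases h1 : c < 3000
  · exact allRange_iff.mp chk_1 c (by omega) (by omega)
  by_cases h2 : c < 4500
  · exact allRange_iff.mp chk_2 c (by omega) (by omega)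
  by_cases h3 : c < 5658
  · exact allRange_iff.mp chk_3 c (by omega) (by omega)
  omega
theorem pairs_ok : pairsC.all (pairOK (relsAll relsL invL 13) invL 12 13) = true := by decide +kernel
theorem dpairs_ok : D.pairs = pairsC.map Prod.fst := by decide +kernel
theorem relsK_ok : ∀ r ∈ relsAll relsL invL 13, ∀ y ∈ r, y < 13 := by decide +kernel
theorem rels_lt : ∀ r ∈ relsL, ∀ y ∈ r, y < 12 := by decide +kernel
theorem core : Lk.Core (relsL) invL 12 [] where
  Kall := rfl
  invK := by decide +kernel
  invE := rfl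
  relsIn := by
    intro r hr
    refine ⟨rels_lt r hr, ?_⟩
    have e : r.map (fun x : ℕ => x) = r := List.map_id' r
    show r.map (fun x : ℕ => x) ∈ _
    rw [e]
    exact hr
  Dpairs := dpairs_ok
  pairs := pairs_ok
  relsK := relsK_ok
  isSub := by
    intro x hx
    have hx' : subL.contains x = true := hx
    show x ∈ subL
    simpa using hx'
  sub := by decide +kernel
  check := check_all
theorem fin_all : allBelow D.finalLabel 5658 = true := by decide +kernel
theorem live_count : D.liveCount = 5616 := by decide +kernel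
theorem h0_ok : D.tg D.K 0 = 0 := by decide +kernel
theorem ok : Lk.OK (relsL) invL 12 [0, 1, 2, 3, 4, 5, 6, 7, 8, 9, 10, 11] [] where
  toCore := core
  gens := by decide +kernel
  hm := by decide
  h0 := h0_ok
  fin := allBelow_iff.mp fin_all
  count := live_count

theorem card_le {G : Type*} [Group G] (v : ℕ → G) (hW : ∀ w ∈ relsL, evalW v w = 1)
    (hoinv : ∀ y < 12, v (invL y) = (v y)⁻¹) (hB : Finite (Sg v [])) :
    Finite (Sg v [0, 1, 2, 3, 4, 5, 6, 7, 8, 9, 10, 11]) ∧ Nat.card (Sg v [0, 1, 2, 3, 4, 5, 6, 7, 8, 9, 10, 11]) ≤ 5616 * Nat.card (Sg v []) :=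
  ok.card_le v hW hoinv hB

end Cfsg.Agent.Lib.Helper20.TitsM.LkL
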