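import Cfsg.Agent.Lib.Helper20.TitsM.LkLData

set_option autoImplicit false
set_option maxRecDepth 100000

namespace Cfsg.Agent.Lib.Helper20.TitsM.LkL

open Cfsg.Agent.Lib.Helper28

theorem chk_0 : allRange D.checkLabel 0 1500 = true := by decide +kernel
theorem chk_1 : allRange D.checkLabel 1500 1500 = true := by decide +kernel
theorem chk_2 : allRange D.checkLabel 3000 1500 = true := by decide +kernel
theorem chk_3 : allRange D.checkLabel 4500 1158 = true := by decide +kernel

end Cfsg.Agent.Lib.Helper20.TitsM.LkL
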