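import Cfsg.Agent.Lib.Helper20.TitsM.LkTData

set_option autoImplicit false
set_option maxRecDepth 100000

namespace Cfsg.Agent.Lib.Helper20.TitsM.LkT

open Cfsg.Agent.Lib.Helper28

theorem chk_12 : allRange D.checkLabel 12000 1000 = true := by decide +kernel
theorem chk_13 : allRange D.checkLabel 13000 1000 = true := by decide +kernel
theorem chk_14 : allRange D.checkLabel 14000 1000 = true := by decide +kernel
theorem chk_15 : allRange D.checkLabel 15000 1000 = true := by decide +kernel
theorem chk_16 : allRange D.checkLabel 16000 1000 = true := by decide +kernel
theorem chk_17 : allRange D.checkLabel 17000 1000 = true := by decide +kernel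

end Cfsg.Agent.Lib.Helper20.TitsM.LkT
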