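import Cfsg.Agent.Lib.Helper20.TitsM.LkTData

set_option autoImplicit false
set_option maxRecDepth 100000

namespace Cfsg.Agent.Lib.Helper20.TitsM.LkT

open Cfsg.Agent.Lib.Helper28

theorem chk_30 : allRange D.checkLabel 30000 1000 = true := by decide +kernel
theorem chk_31 : allRange D.checkLabel 31000 1000 = true := by decide +kernel
theorem chk_32 : allRange D.checkLabel 32000 1000 = true := by decide +kernel
theorem chk_33 : allRange D.checkLabel 33000 1000 = true := by decide +kernel
theorem chk_34 : allRange D.checkLabel 34000 1000 = true := by decide +kernel
theorem chk_35 : allRange D.checkLabel 35000 1000 = true := by decide +kernel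

end Cfsg.Agent.Lib.Helper20.TitsM.LkT
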