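import Cfsg.Agent.Lib.Helper20.TitsM.LkTData

set_option autoImplicit false
set_option maxRecDepth 100000

namespace Cfsg.Agent.Lib.Helper20.TitsM.LkT

open Cfsg.Agent.Lib.Helper28

theorem chk_42 : allRange D.checkLabel 42000 1000 = true := by decide +kernel
theorem chk_43 : allRange D.checkLabel 43000 1000 = true := by decide +kernel
theorem chk_44 : allRange D.checkLabel 44000 1000 = true := by decide +kernel
theorem chk_45 : allRange D.checkLabel 45000 1000 = true := by decide +kernel
theorem chk_46 : allRange D.checkLabel 46000 1000 = true := by decide +kernel
theorem chk_47 : allRange D.checkLabel 47000 1000 = true := by decide +kernel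

end Cfsg.Agent.Lib.Helper20.TitsM.LkT
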