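import Cfsg.Agent.Lib.Helper20.TitsM.LkTC0
import Cfsg.Agent.Lib.Helper20.TitsM.LkTC1
import Cfsg.Agent.Lib.Helper20.TitsM.LkTC2
import Cfsg.Agent.Lib.Helper20.TitsM.LkTC3
import Cfsg.Agent.Lib.Helper20.TitsM.LkTC4
import Cfsg.Agent.Lib.Helper20.TitsM.LkTC5
import Cfsg.Agent.Lib.Helper20.TitsM.LkTC6
import Cfsg.Agent.Lib.Helper20.TitsM.LkTC7
import Cfsg.Agent.Lib.Helper20.TitsM.LkTC8

set_option autoImplicit false
set_option maxRecDepth 100000

namespace Cfsg.Agent.Lib.Helper20.TitsM.LkT

open Cfsg.Agent.Lib.Helper28

theorem check_all : ∀ c < D.m, D.checkLabel c = true := by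
  intro c hc
  have hc' : c < 53811 := hc
  by_cases h0 : c < 1000
  · exact allRange_iff.mp chk_0 c (by omega) (by omega)
  by_cases h1 : c < 2000
  · exact allRange_iff.mp chk_1 c (by omega) (by omega)
  by_cases h2 : c < 3000
  · exact allRange_iff.mp chk_2 c (by omega) (by omega)
  by_cases h3 : c < 4000
  · exact allRange_iff.mp chk_3 c (by omega) (by omega)
  by_cases h4 : c < 5000
  · exact allRange_iff.mp chk_4 c (by omega) (by omega)
  by_cases h5 : c < 6000
  · exact allRange_iff.mp chk_5 c (by omega) (by omega)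
  by_cases h6 : c < 7000
  · exact allRange_iff.mp chk_6 c (by omega) (by omega)
  by_cases h7 : c < 8000
  · exact allRange_iff.mp chk_7 c (by omega) (by omega)
  by_cases h8 : c < 9000
  · exact allRange_iff.mp chk_8 c (by omega) (by omega)
  by_cases h9 : c < 10000
  · exact allRange_iff.mp chk_9 c (by omega) (by omega)
  by_cases h10 : c < 11000
  · exact allRange_iff.mp chk_10 c (by omega) (by omega)
  by_cases h11 : c < 12000
  · exact allRange_iff.mp chk_11 c (by omega) (by omega)
  by_cases h12 : c < 13000
  · exact allRange_iff.mp chk_12 c (by omega) (by omega)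
  by_cases h13 : c < 14000
  · exact allRange_iff.mp chk_13 c (by omega) (by omega)
  by_cases h14 : c < 15000
  · exact allRange_iff.mp chk_14 c (by omega) (by omega)
  by_cases h15 : c < 16000
  · exact allRange_iff.mp chk_15 c (by omega) (by omega)
  by_cases h16 : c < 17000
  · exact allRange_iff.mp chk_16 c (by omega) (by omega)
  by_cases h17 : c < 18000
  · exact allRange_iff.mp chk_17 c (by omega) (by omega)
  by_cases h18 : c < 19000
  · exact allRange_iff.mp chk_18 c (by omega) (by omega)
  by_cases h19 : c < 20000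
  · exact allRange_iff.mp chk_19 c (by omega) (by omega)
  by_cases h20 : c < 21000
  · exact allRange_iff.mp chk_20 c (by omega) (by omega)
  by_cases h21 : c < 22000
  · exact allRange_iff.mp chk_21 c (by omega) (by omega)
  by_cases h22 : c < 23000
  · exact allRange_iff.mp chk_22 c (by omega) (by omega)
  by_cases h23 : c < 24000
  · exact allRange_iff.mp chk_23 c (by omega) (by omega)
  by_cases h24 : c < 25000
  · exact allRange_iff.mp chk_24 c (by omega) (by omega)
  by_cases h25 : c < 26000
  · exact allRange_iff.mp chk_25 c (by omega) (by omega)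
  by_cases h26 : c < 27000
  · exact allRange_iff.mp chk_26 c (by omega) (by omega)
  by_cases h27 : c < 28000
  · exact allRange_iff.mp chk_27 c (by omega) (by omega)
  by_cases h28 : c < 29000
  · exact allRange_iff.mp chk_28 c (by omega) (by omega)
  by_cases h29 : c < 30000
  · exact allRange_iff.mp chk_29 c (by omega) (by omega)
  by_cases h30 : c < 31000
  · exact allRange_iff.mp chk_30 c (by omega) (by omega)
  by_cases h31 : c < 32000
  · exact allRange_iff.mp chk_31 c (by omega) (by omega)
  by_cases h32 : c < 33000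
  · exact allRange_iff.mp chk_32 c (by omega) (by omega)
  by_cases h33 : c < 34000
  · exact allRange_iff.mp chk_33 c (by omega) (by omega)
  by_cases h34 : c < 35000
  · exact allRange_iff.mp chk_34 c (by omega) (by omega)
  by_cases h35 : c < 36000
  · exact allRange_iff.mp chk_35 c (by omega) (by omega)
  by_cases h36 : c < 37000
  · exact allRange_iff.mp chk_36 c (by omega) (by omega)
  by_cases h37 : c < 38000
  · exact allRange_iff.mp chk_37 c (by omega) (by omega)
  by_cases h38 : c < 39000
  · exact allRange_iff.mp chk_38 c (by omega) (by omega)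
  by_cases h39 : c < 40000
  · exact allRange_iff.mp chk_39 c (by omega) (by omega)
  by_cases h40 : c < 41000
  · exact allRange_iff.mp chk_40 c (by omega) (by omega)
  by_cases h41 : c < 42000
  · exact allRange_iff.mp chk_41 c (by omega) (by omega)
  by_cases h42 : c < 43000
  · exact allRange_iff.mp chk_42 c (by omega) (by omega)
  by_cases h43 : c < 44000
  · exact allRange_iff.mp chk_43 c (by omega) (by omega)
  by_cases h44 : c < 45000
  · exact allRange_iff.mp chk_44 c (by omega) (by omega)
  by_cases h45 : c < 46000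
  · exact allRange_iff.mp chk_45 c (by omega) (by omega)
  by_cases h46 : c < 47000
  · exact allRange_iff.mp chk_46 c (by omega) (by omega)
  by_cases h47 : c < 48000
  · exact allRange_iff.mp chk_47 c (by omega) (by omega)
  by_cases h48 : c < 49000
  · exact allRange_iff.mp chk_48 c (by omega) (by omega)
  by_cases h49 : c < 50000
  · exact allRange_iff.mp chk_49 c (by omega) (by omega)
  by_cases h50 : c < 51000
  · exact allRange_iff.mp chk_50 c (by omega) (by omega)
  by_cases h51 : c < 52000
  · exact allRange_iff.mp chk_51 c (by omega) (by omega)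
  by_cases h52 : c < 53000
  · exact allRange_iff.mp chk_52 c (by omega) (by omega)
  by_cases h53 : c < 53811
  · exact allRange_iff.mp chk_53 c (by omega) (by omega)
  omega
theorem pairs_ok : pairsC.all (pairOK (relsAll relsT invL 15) invL 14 15) = true := by decide +kernel
theorem dpairs_ok : D.pairs = pairsC.map Prod.fst := by decide +kernel
theorem relsK_ok : ∀ r ∈ relsAll relsT invL 15, ∀ y ∈ r, y < 15 := by decide +kernel
theorem rels_lt : ∀ r ∈ relsT, ∀ y ∈ r, y < 14 := by decide +kernel
theorem core : Lk.Core (relsT) invL 14 [0, 1, 2, 3, 4, 5, 6, 7, 8, 9, 10, 11] where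
  Kall := rfl
  invK := by decide +kernel
  invE := rfl
  relsIn := by
    intro r hr
    refine ⟨rels_lt r hr, ?_⟩
    have e : r.map (fun x : ℕ => x) = r := List.map_id' r
    show r.map (fun x : ℕ => x) ∈ _
    rw [e]
    exact hr
  Dpairs := dpairs_ok
  pairs := pairs_ok
  relsK := relsK_ok
  isSub := by
    intro x hx
    have hx' : subL.contains x = true := hx
    show x ∈ subL
    simpa using hx'
  sub := by decide +kernel
  check := check_all
theorem fin_all : allBelow D.finalLabel 53811 = true := by decide +kernel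
theorem live_count : D.liveCount = 3200 := by decide +kernel
theorem h0_ok : D.tg D.K 0 = 0 := by decide +kernel
theorem ok : Lk.OK (relsT) invL 14 [0, 1, 2, 3, 4, 5, 6, 7, 8, 9, 10, 11, 12, 13] [0, 1, 2, 3, 4, 5, 6, 7, 8, 9, 10, 11] where
  toCore := core
  gens := by decide +kernel
  hm := by decide
  h0 := h0_ok
  fin := allBelow_iff.mp fin_all
  count := live_count

theorem card_le {G : Type*} [Group G] (v : ℕ → G) (hW : ∀ w ∈ relsT, evalW v w = 1)
    (hoinv : ∀ y < 14, v (invL y) = (v y)⁻¹) (hB : Finite (Sg v [0, 1, 2, 3, 4, 5, 6, 7, 8, 9, 10, 11])) :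
    Finite (Sg v [0, 1, 2, 3, 4, 5, 6, 7, 8, 9, 10, 11, 12, 13]) ∧ Nat.card (Sg v [0, 1, 2, 3, 4, 5, 6, 7, 8, 9, 10, 11, 12, 13]) ≤ 3200 * Nat.card (Sg v [0, 1, 2, 3, 4, 5, 6, 7, 8, 9, 10, 11]) :=
  ok.card_le v hW hoinv hB

end Cfsg.Agent.Lib.Helper20.TitsM.LkT
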