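import Cfsg.Agent.Lib.Helper20.TitsM.LkTData

set_option autoImplicit false
set_option maxRecDepth 100000

namespace Cfsg.Agent.Lib.Helper20.TitsM.LkT

open Cfsg.Agent.Lib.Helper28

theorem chk_0 : allRange D.checkLabel 0 1000 = true := by decide +kernel
theorem chk_1 : allRange D.checkLabel 1000 1000 = true := by decide +kernel
theorem chk_2 : allRange D.checkLabel 2000 1000 = true := by decide +kernel
theorem chk_3 : allRange D.checkLabel 3000 1000 = true := by decide +kernel
theorem chk_4 : allRange D.checkLabel 4000 1000 = true := by decide +kernel
theorem chk_5 : allRange D.checkLabel 5000 1000 = true := by decide +kernel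

end Cfsg.Agent.Lib.Helper20.TitsM.LkT
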