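/-
Helper library (helper20): a stem extension of the Tits group whose kernel has no 3-torsion is trivial.
The seven generators of order 3 have unique lifts of order 3, all relators of `relsT` hold for the lifts, and two
coset enumerations (3200 and 5616 cosets) bound the order of the extension.
-/
import Cfsg.Agent.Lib.Helper20.TitsM.Good
import Cfsg.Agent.Lib.Helper20.TitsM.LkL
import Cfsg.Agent.Lib.Helper20.TitsM.LkT
import Cfsg.Agent.Lib.Helper11.TitsM.ULB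
import Cfsg.Agent.Lib.Helper66.StemLemmas

set_option autoImplicit false
set_option maxRecDepth 100000

namespace Cfsg.Agent.Lib.Helper20.TitsM

open Cfsg.Agent.Lib.Helper28 Cfsg.Agent.Lib.Helper27.PC Cfsg.Agent.Lib.Helper27.TiP
open Cfsg.Agent.Lib.Helper27 Cfsg.Agent.Lib.Helper20.Tits2T Cfsg.Agent.Lib.Helper11.TitsM

theorem evalW_relA {G : Type*} [Group G] (u : ℕ → G) (hu : ∀ l < 14, u (oinv l) = (u l)⁻¹)
    (d : ℕ × List ℕ × ℕ) (hd2 : ∀ y ∈ d.2.1, y < 14) (hd3 : d.2.2 < 14) :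
    evalW u (relA d) = (evalW u d.2.1)⁻¹ * u d.1 * evalW u d.2.1 * (u d.2.2)⁻¹ := by
  unfold relA
  rw [evalW_append, evalW_invrev hu _ hd2, evalW_cons, evalW_append, evalW_cons, evalW_nil, mul_one, hu _ hd3]
  group

theorem evalW_relB {G : Type*} [Group G] (u : ℕ → G) (hu : ∀ l < 14, u (oinv l) = (u l)⁻¹)
    (d : ℕ × ℕ × ℕ) (hd1 : d.1 < 14) (hd2 : d.2.1 < 14) (hd3 : d.2.2 < 14) :
    evalW u (relB d) = (u d.1)⁻¹ * (u d.2.1)⁻¹ * u d.1 * u d.2.1 * (u d.2.2)⁻¹ := by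
  unfold relB
  simp only [evalW_cons, evalW_nil, mul_one, hu _ hd1, hu _ hd2, hu _ hd3]
  group

theorem dataTA_lt : ∀ d ∈ dataTA, d.1 < 14 ∧ (∀ y ∈ d.2.1, y < 14) ∧ d.2.2 < 14 := by decide +kernel
theorem dataLA_lt : ∀ d ∈ dataLA, d.1 < 14 ∧ (∀ y ∈ d.2.1, y < 14) ∧ d.2.2 < 14 := by decide +kernel
theorem dataLB_lt : ∀ d ∈ dataLB, d.1 < 14 ∧ d.2.1 < 14 ∧ d.2.2 < 14 := by decide +kernel

section

variable {E : Type*} [Group E] (σ : E →* Γ) (v : ℕ → E)

/-- lifts of order 3 of the letters -/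
structure Lift : Prop where
  cube : ∀ l < 14, (v l) ^ 3 = 1
  img : ∀ l < 14, σ (v l) = τ l
  inv : ∀ l < 14, v (oinv l) = (v l)⁻¹

variable {σ v}

theorem Lift.map_evalW (hv : Lift σ v) (r : List ℕ) (hr : ∀ l ∈ r, l < 14) : σ (evalW v r) = evalW τ r := by
  induction r with
  | nil => simp
  | cons x r ih =>
    rw [evalW_cons, evalW_cons, map_mul, hv.img x (hr x List.mem_cons_self),
      ih (fun l hl => hr l (List.mem_cons_of_mem _ hl))]

theorem Lift.goodA (hv : Lift σ v) (hc : σ.ker ≤ Subgroup.center E)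
    (htor : ∀ ζ ∈ σ.ker, ζ ^ 3 = 1 → ζ = 1) (d : ℕ × List ℕ × ℕ) (hd1 : d.1 < 14)
    (hd2 : ∀ y ∈ d.2.1, y < 14) (hd3 : d.2.2 < 14) (h : evalW τ (relA d) = 1) : evalW v (relA d) = 1 := by
  rw [evalW_relA τ τ_oinv d hd2 hd3, mul_inv_eq_one] at h
  rw [evalW_relA v hv.inv d hd2 hd3, mul_inv_eq_one]
  apply lift_unique σ hc htor _ (hv.cube _ hd3)
  · rw [map_mul, map_mul, map_inv, hv.map_evalW _ hd2, hv.img _ hd1, hv.img _ hd3]
    exact h
  · have e : (evalW v d.2.1)⁻¹ * v d.1 * evalW v d.2.1 = (evalW v d.2.1)⁻¹ * v d.1 * ((evalW v d.2.1)⁻¹)⁻¹ := by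
      rw [inv_inv]
    rw [e, conj_pow, hv.cube _ hd1]
    group

theorem Lift.goodB (hv : Lift σ v) (hc : σ.ker ≤ Subgroup.center E)
    (htor : ∀ ζ ∈ σ.ker, ζ ^ 3 = 1 → ζ = 1) (d : ℕ × ℕ × ℕ) (hd1 : d.1 < 14)
    (hd2 : d.2.1 < 14) (hd3 : d.2.2 < 14) (hcomm : Commute (τ d.1) (τ d.2.2))
    (h : evalW τ (relB d) = 1) : evalW v (relB d) = 1 := by
  rw [evalW_relB τ τ_oinv d hd1 hd2 hd3, mul_inv_eq_one] at h
  rw [evalW_relB v hv.inv d hd1 hd2 hd3, mul_inv_eq_one]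
  apply comm_rel σ hc htor (hv.cube _ hd1) (hv.cube _ hd3)
  · rw [hv.img _ hd1, hv.img _ hd3]; exact hcomm
  · rw [hv.img _ hd1, hv.img _ hd2, hv.img _ hd3]; exact h

theorem Lift.cubeW (hv : Lift σ v) (x : ℕ) (hx : x < 14) : evalW v [x, x, x] = 1 := by
  rw [evalW_cons, evalW_cons, evalW_cons, evalW_nil, mul_one, ← hv.cube x hx, pow_succ, pow_two, mul_assoc]

theorem mem_relsL_T {w : List ℕ} (h : w ∈ relsL) : w ∈ relsT := by
  unfold relsT
  exact List.mem_append_left _ (List.mem_append_left _ h)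

theorem Lift.relsL (hv : Lift σ v) (hc : σ.ker ≤ Subgroup.center E)
    (htor : ∀ ζ ∈ σ.ker, ζ ^ 3 = 1 → ζ = 1) (w : List ℕ) (hw : w ∈ relsL) : evalW v w = 1 := by
  have hτ := relsT_τ w (mem_relsL_T hw)
  unfold TitsM.relsL at hw
  rcases List.mem_append.mp hw with hw | hw
  · rcases List.mem_append.mp hw with hw | hw
    · obtain ⟨x, hx, rfl⟩ := List.mem_map.mp hw
      have hx14 : x < 14 := by
        have : ∀ x ∈ cubesL, x < 14 := by decide
        exact this x hx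
      exact hv.cubeW x hx14
    · obtain ⟨d, hd, rfl⟩ := List.mem_map.mp hw
      obtain ⟨h1, h2, h3⟩ := dataLA_lt d hd
      exact hv.goodA hc htor d h1 h2 h3 hτ
  · obtain ⟨d, hd, rfl⟩ := List.mem_map.mp hw
    obtain ⟨h1, h2, h3⟩ := dataLB_lt d hd
    exact hv.goodB hc htor d h1 h2 h3 (τ_comm d hd) hτ

theorem Lift.relsT (hv : Lift σ v) (hc : σ.ker ≤ Subgroup.center E)
    (htor : ∀ ζ ∈ σ.ker, ζ ^ 3 = 1 → ζ = 1) (w : List ℕ) (hw : w ∈ relsT) : evalW v w = 1 := by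
  have hτ := relsT_τ w hw
  unfold TitsM.relsT at hw
  rcases List.mem_append.mp hw with hw | hw
  · rcases List.mem_append.mp hw with hw | hw
    · exact hv.relsL hc htor w hw
    · rw [List.mem_singleton] at hw
      rw [hw]
      exact hv.cubeW 12 (by norm_num)
  · obtain ⟨d, hd, rfl⟩ := List.mem_map.mp hw
    obtain ⟨h1, h2, h3⟩ := dataTA_lt d hd
    exact hv.goodA hc htor d h1 h2 h3 hτ

theorem Lift.card_le [Finite E] (hv : Lift σ v) (hσ : Cfsg.IsStemExtension σ)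
    (htor : ∀ ζ ∈ σ.ker, ζ ^ 3 = 1 → ζ = 1) : Nat.card E ≤ 17971200 := by
  have hc := hσ.2.1
  have i1 : ∀ y < 12, LkL.invL y = oinv y := by decide
  have i2 : ∀ y < 14, LkT.invL y = oinv y := by decide
  obtain ⟨fL, cL⟩ := LkL.card_le v (hv.relsL hc htor)
    (fun y hy => by rw [i1 y hy]; exact hv.inv y (by omega)) (by rw [Sg_nil]; infer_instance)
  obtain ⟨fT, cT⟩ := LkT.card_le v (hv.relsT hc htor)
    (fun y hy => by rw [i2 y hy]; exact hv.inv y hy) fL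
  have htop : Sg v [0, 1, 2, 3, 4, 5, 6, 7, 8, 9, 10, 11, 12, 13] = ⊤ := by
    apply Cfsg.Agent.Lib.Helper66.IsStemExtension.closure_eq_top hσ
    rw [eq_top_iff, ← τ_top]
    apply Subgroup.closure_mono
    rintro _ ⟨x, hx, rfl⟩
    have hx14 : x < 14 := hx
    refine ⟨v x, ⟨x, ?_, rfl⟩, hv.img x hx14⟩
    show x ∈ [0, 1, 2, 3, 4, 5, 6, 7, 8, 9, 10, 11, 12, 13]
    interval_cases x <;> decide
  rw [htop] at cT
  rw [Sg_nil, Subgroup.card_bot] at cL
  have e : Nat.card (⊤ : Subgroup E) = Nat.card E := Nat.card_congr Subgroup.topEquiv.toEquiv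
  rw [e] at cT
  calc Nat.card E ≤ 3200 * Nat.card (Sg v [0, 1, 2, 3, 4, 5, 6, 7, 8, 9, 10, 11]) := cT
    _ ≤ 3200 * (5616 * 1) := Nat.mul_le_mul_left _ cL
    _ = 17971200 := by norm_num

end

theorem exists_Lift {E : Type*} [Group E] [Finite E] (σ : E →* Γ) (hσ : Cfsg.IsStemExtension σ)
    (htor : ∀ ζ ∈ σ.ker, ζ ^ 3 = 1 → ζ = 1) : ∃ v : ℕ → E, Lift σ v := by
  have hl : ∀ i : ℕ, ∃ a : E, i < 7 → (σ a = τ (2 * i) ∧ a ^ 3 = 1) := by
    intro i
    by_cases hi : i < 7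
    · obtain ⟨a, h1, h2⟩ := exists_lift σ hσ.1 hσ.2.1 htor (τ (2 * i)) (τ_cube _ (by omega))
      exact ⟨a, fun _ => ⟨h1, h2⟩⟩
    · exact ⟨1, fun h => absurd h hi⟩
  choose g hg using hl
  refine ⟨fun l => if l % 2 = 0 then g (l / 2) else (g (l / 2))⁻¹, ?_, ?_, ?_⟩
  · intro l hl
    by_cases h : l % 2 = 0
    · simp only [h, if_true]
      exact (hg (l / 2) (by omega)).2
    · simp only [h, if_false]
      rw [inv_pow, (hg (l / 2) (by omega)).2, inv_one]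
  · intro l hl
    by_cases h : l % 2 = 0
    · simp only [h, if_true]
      rw [(hg (l / 2) (by omega)).1]
      congr 1
      omega
    · simp only [h, if_false]
      rw [map_inv, (hg (l / 2) (by omega)).1, ← τ_oinv _ (by omega)]
      congr 1
      unfold oinv
      rw [if_pos (by omega)]
      omega
  · intro l hl
    unfold oinv
    by_cases h : l % 2 = 0
    · have h1 : (l + 1) % 2 ≠ 0 := by omega
      have h2 : (l + 1) / 2 = l / 2 := by omega
      simp only [h, if_true, h1, if_false, h2]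
    · have h1 : (l - 1) % 2 = 0 := by omega
      have h2 : (l - 1) / 2 = l / 2 := by omega
      simp only [h, if_false, h1, if_true, h2, inv_inv]

/-- a stem extension of the Tits group whose kernel has no 3-torsion is trivial -/
theorem part1 {E : Type*} [Group E] [Finite E] (σ : E →* Γ) (hσ : Cfsg.IsStemExtension σ)
    (htor : ∀ ζ ∈ σ.ker, ζ ^ 3 = 1 → ζ = 1) : σ.ker = ⊥ := by
  obtain ⟨v, hv⟩ := exists_Lift σ hσ htor
  have h1 := hv.card_le hσ htor
  have hb : Function.Bijective σ := by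
    rw [Nat.bijective_iff_surjective_and_card]
    refine ⟨hσ.1, le_antisymm ?_ (Nat.card_le_card_of_surjective σ hσ.1)⟩
    have : Nat.card Γ = 17971200 := cardT
    rw [this]
    exact h1
  exact (MonoidHom.ker_eq_bot_iff σ).mpr hb.1

end Cfsg.Agent.Lib.Helper20.TitsM
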