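/-
Helper library (helper20): the 3-part of the Schur multiplier of the Tits group: data for `part3`
(a Sylow 3-subgroup `⟨x, y⟩` of order 27 and two involutions acting on it).
-/
import Cfsg.Agent.Lib.Helper20.TitsM.Good
import Cfsg.Agent.Lib.Helper11.TitsM.P3

set_option autoImplicit false
set_option maxRecDepth 100000

namespace Cfsg.Agent.Lib.Helper20.TitsM

open Cfsg.Agent.Lib.Helper28 Cfsg.Agent.Lib.Helper27.PC Cfsg.Agent.Lib.Helper27.TiP
open Cfsg.Agent.Lib.Helper27 Cfsg.Agent.Lib.Helper20.Tits2T Cfsg.Agent.Lib.Helper11.TitsM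

/-- the word of `x ^ i * y ^ j * w ^ k`, `n = 9 i + 3 j + k` -/
def wl (n : ℕ) : List ℕ :=
  List.replicate (n / 9) 0 ++ (List.replicate (n / 3 % 3) 2 ++ (List.replicate (n % 3) [0, 2, 1, 3]).flatten)

/-- the multiplication table -/
def mt (a b : ℕ) : ℕ :=
  9 * ((a / 9 + b / 9) % 3) + 3 * ((a / 3 % 3 + b / 3 % 3) % 3) + ((a % 3 + b % 3 + 2 * (a / 3 % 3) * (b / 9)) % 3)

theorem mt_chk : ∀ a < 27, ∀ b < 27, code (flat (wl a ++ wl b)) = code (flat (wl (mt a b))) := by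
  decide +kernel

theorem nd_chk : ((List.range 27).map (fun n => code (flat (wl n)))).Nodup := by decide +kernel

theorem mt_lt (a b : ℕ) : mt a b < 27 := by
  unfold mt
  generalize 2 * (a / 3 % 3) * (b / 9) = c
  omega

theorem evalW_replicate {G : Type*} [Group G] (u : ℕ → G) (a k : ℕ) :
    evalW u (List.replicate k a) = (u a) ^ k := by
  induction k with
  | zero => simp
  | succ k ih => rw [List.replicate_succ, evalW_cons, ih, pow_succ']

theorem evalW_flatten_replicate {G : Type*} [Group G] (u : ℕ → G) (r : List ℕ) (k : ℕ) :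
    evalW u (List.replicate k r).flatten = (evalW u r) ^ k := by
  induction k with
  | zero => simp
  | succ k ih => rw [List.replicate_succ, List.flatten_cons, evalW_append, ih, pow_succ']

theorem evalW_wl (n : ℕ) :
    evalW τ (wl n) = τ 0 ^ (n / 9) * τ 2 ^ (n / 3 % 3) * (evalW τ [0, 2, 1, 3]) ^ (n % 3) := by
  unfold wl
  rw [evalW_append, evalW_append, evalW_replicate, evalW_replicate, evalW_flatten_replicate, mul_assoc]

/-- base images of an element -/
def cf (g : Γ) : List ℕ :=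
  [(g : Equiv.Perm ℕ) 0 + 1, (g : Equiv.Perm ℕ) 230 + 1, (g : Equiv.Perm ℕ) 17 + 1]

theorem cf_evalW (r : List ℕ) : cf (evalW τ r) = code (flat r) := by
  rw [evalW_τ, code_eq (flat_ok r)]
  rfl

theorem exists_R : ∃ R : Subgroup Γ, Nat.card R = 27 ∧ ∀ g, g ∈ R ↔ ∃ n < 27, g = evalW τ (wl n) := by
  have hnd : ((List.range 27).map (fun n => evalW τ (wl n))).Nodup := by
    apply List.Nodup.of_map cf
    rw [List.map_map]
    have e : (cf ∘ fun n => evalW τ (wl n)) = fun n => code (flat (wl n)) := by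
      funext n
      exact cf_evalW _
    rw [e]
    exact nd_chk
  have h1 : (1 : Γ) ∈ (List.range 27).map (fun n => evalW τ (wl n)) := by
    rw [List.mem_map]
    exact ⟨0, by simp, by simp [wl]⟩
  have hmul : ∀ a ∈ (List.range 27).map (fun n => evalW τ (wl n)),
      ∀ b ∈ (List.range 27).map (fun n => evalW τ (wl n)),
      a * b ∈ (List.range 27).map (fun n => evalW τ (wl n)) := by
    intro a ha b hb
    obtain ⟨n1, h1, rfl⟩ := List.mem_map.mp ha
    obtain ⟨n2, h2, rfl⟩ := List.mem_map.mp hb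
    rw [List.mem_map]
    refine ⟨mt n1 n2, List.mem_range.mpr (mt_lt _ _), ?_⟩
    rw [← evalW_append]
    exact (evalW_eq (mt_chk n1 (List.mem_range.mp h1) n2 (List.mem_range.mp h2))).symm
  obtain ⟨H, hc, hm⟩ := exists_subgroup_of_list _ hnd h1 hmul
  refine ⟨H, by simpa using hc, fun g => ?_⟩
  rw [hm, List.mem_map]
  constructor
  · rintro ⟨n, hn, rfl⟩
    exact ⟨n, List.mem_range.mp hn, rfl⟩
  · rintro ⟨n, hn, rfl⟩
    exact ⟨n, List.mem_range.mpr hn, rfl⟩

theorem τ1 : τ 1 = (τ 0)⁻¹ := τ_oinv 0 (by norm_num)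
theorem τ3 : τ 3 = (τ 2)⁻¹ := τ_oinv 2 (by norm_num)

theorem w_eq : evalW τ [0, 2, 1, 3] = τ 0 * τ 2 * (τ 0)⁻¹ * (τ 2)⁻¹ := by
  simp only [evalW_cons, evalW_nil, mul_one, τ1, τ3, mul_assoc]

/-- a stem extension of the Tits group whose kernel is a 3-group is trivial -/
theorem part2 {E : Type*} [Group E] [Finite E] (σ : E →* Γ) (hσ : Cfsg.IsStemExtension σ)
    (h3 : ∀ ζ ∈ σ.ker, ∃ k : ℕ, ζ ^ (3 ^ k) = 1) : σ.ker = ⊥ := by
  obtain ⟨R, hRc, hRm⟩ := exists_R
  have c1 : evalW τ [0, 0, 2, 1, 3] = evalW τ [0, 2, 1, 3, 0] := evalW_eq (by decide +kernel)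
  have c2 : evalW τ [2, 0, 2, 1, 3] = evalW τ [0, 2, 1, 3, 2] := evalW_eq (by decide +kernel)
  have c3 : evalW τ [14, 0] = evalW τ [1, 14] := evalW_eq (by decide +kernel)
  have c4 : evalW τ [14, 2] = evalW τ [2, 14] := evalW_eq (by decide +kernel)
  have c5 : evalW τ [15, 0] = evalW τ [0, 15] := evalW_eq (by decide +kernel)
  have c6 : evalW τ [15, 2] = evalW τ [3, 15] := evalW_eq (by decide +kernel)
  have hne : evalW τ [0, 2, 1, 3] ≠ 1 := by
    rw [evalW_τ, ← el_nil]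
    exact el_ne_of_code (flat_ok _) nil_ok (by decide +kernel)
  refine part3 σ hσ h3 (τ 0) (τ 2) (evalW τ [0, 2, 1, 3]) (τ 14) (τ 15) (τ_cube 0 (by norm_num))
    (τ_cube 2 (by norm_num)) w_eq hne ?_ ?_ ?_ ?_ ?_ ?_ R ?_ ?_ ?_ ?_
  · show τ 0 * evalW τ [0, 2, 1, 3] = evalW τ [0, 2, 1, 3] * τ 0
    have e : evalW τ [0, 2, 1, 3, 0] = evalW τ [0, 2, 1, 3] * τ 0 := by
      simp only [evalW_cons, evalW_nil, mul_one, mul_assoc]
    rw [← e, ← c1]
    exact (evalW_cons τ 0 [0, 2, 1, 3]).symm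
  · show τ 2 * evalW τ [0, 2, 1, 3] = evalW τ [0, 2, 1, 3] * τ 2
    have e : evalW τ [0, 2, 1, 3, 2] = evalW τ [0, 2, 1, 3] * τ 2 := by
      simp only [evalW_cons, evalW_nil, mul_one, mul_assoc]
    rw [← e, ← c2]
    exact (evalW_cons τ 2 [0, 2, 1, 3]).symm
  · simp only [evalW_cons, evalW_nil, mul_one, τ1] at c3
    rw [c3, mul_inv_cancel_right]
  · simp only [evalW_cons, evalW_nil, mul_one] at c4
    rw [c4, mul_inv_cancel_right]
  · simp only [evalW_cons, evalW_nil, mul_one] at c5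
    rw [c5, mul_inv_cancel_right]
  · simp only [evalW_cons, evalW_nil, mul_one, τ3] at c6
    rw [c6, mul_inv_cancel_right]
  · rw [hRm]
    exact ⟨9, by norm_num, by rw [evalW_wl]; simp⟩
  · rw [hRm]
    exact ⟨3, by norm_num, by rw [evalW_wl]; simp⟩
  · intro r hr
    obtain ⟨n, _, rfl⟩ := (hRm r).mp hr
    exact ⟨n / 9, n / 3 % 3, n % 3, evalW_wl n⟩
  · have h1 := R.card_mul_index
    have h2 : Nat.card Γ = 17971200 := cardT
    rw [hRc, h2] at h1
    have h4 : R.index = 665600 := by omega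
    rw [h4]
    norm_num

end Cfsg.Agent.Lib.Helper20.TitsM
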