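/-
Helper library (helper20): the Schur multiplier of the Tits group is trivial.
-/
import Cfsg.Agent.Lib.Helper20.TitsM.Part1
import Cfsg.Agent.Lib.Helper20.TitsM.Syl3
import Cfsg.Agent.Lib.Helper20.Tits2T.Iso
import Cfsg.Agent.Lib.Helper11.TitsM.ASM
import Cfsg.Agent.Lib.Helper66.PSL2Mult

set_option autoImplicit false

namespace Cfsg.Agent.Lib.Helper20.TitsM

open Cfsg.Agent.Lib.Helper20.Tits2T

theorem mult_Γ : Cfsg.HasCyclicSchurMultiplier Γ 1 :=
  Cfsg.Agent.Lib.Helper11.TitsM.asm (fun _ _ _ σ hσ h => part1 σ hσ h) (fun _ _ _ σ hσ h => part2 σ hσ h)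

theorem main : Cfsg.HasCyclicSchurMultiplier Cfsg.Lie.TitsGroup 1 := by
  obtain ⟨e⟩ := exists_iso
  exact Cfsg.Agent.Lib.Helper66.HasSchurMultiplier.of_mulEquiv e mult_Γ

end Cfsg.Agent.Lib.Helper20.TitsM
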